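import Cfsg.Agent.H6.SnJoin

set_option autoImplicit false
set_option linter.unusedSectionVars false
set_option linter.unusedSimpArgs false
open Cfsg Subgroup
open scoped Pointwise

namespace Cfsg.Agent.H6

section
variable {G : Type*} [Group G] [Finite G]

theorem c24_nocomm (h6 : ∀ g : G, orderOf g ≠ 6) {x t : G} (hx : orderOf x = 3) (ht : orderOf t = 2) : x * t ≠ t * x := by
  intro h
  have hc : Commute x t := h
  apply h6 (x * t)
  rw [hc.orderOf_mul_eq_mul_orderOf_of_coprime (by rw [hx, ht]; norm_num), hx, ht]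

/-- a 2-subgroup centralizing x of order 3 is trivial -/
theorem c24_triv (h6 : ∀ g : G, orderOf g ≠ 6) {x : G} (hx : orderOf x = 3) {Q : Subgroup G} (hQ : IsPGroup 2 ↥Q)
    {q : G} (hq : q ∈ Q) (hqx : x * q = q * x) : q = 1 := by
  haveI : Fact (Nat.Prime 2) := ⟨Nat.prime_two⟩
  by_contra hne
  obtain ⟨k, hk⟩ := IsPGroup.iff_orderOf.1 hQ ⟨q, hq⟩
  rw [Subgroup.orderOf_mk] at hk
  have hk0 : k ≠ 0 := by
    rintro rfl
    rw [pow_zero, orderOf_eq_one_iff] at hk
    exact hne hk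
  obtain ⟨m, rfl⟩ := Nat.exists_eq_succ_of_ne_zero hk0
  have h1 : orderOf (q ^ 2 ^ m) = 2 := by
    rw [orderOf_pow_of_dvd (pow_ne_zero _ two_ne_zero) (by rw [hk]; exact pow_dvd_pow _ (Nat.le_succ m)), hk, pow_succ,
      Nat.mul_div_cancel_left _ (pow_pos two_pos _)]
  have hc : Commute x q := hqx
  exact c24_nocomm h6 hx h1 (hc.pow_right _)

theorem c24_syl3 (h : Nat.card G = 24) (P : Sylow 3 G) : Nat.card ↥(P : Subgroup G) = 3 := by
  haveI : Fact (Nat.Prime 3) := ⟨Nat.prime_three⟩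
  have h1 := P.card_eq_multiplicity
  rw [h] at h1
  have : Nat.factorization 24 3 = 1 := by
    have : (24 : ℕ) = 3 ^ 1 * 8 := by norm_num
    rw [this, Nat.factorization_mul (by norm_num) (by norm_num)]
    simp [Nat.prime_three.factorization, Nat.factorization_eq_zero_of_not_dvd (show ¬ 3 ∣ 8 by norm_num)]
  rw [this] at h1
  simpa using h1

theorem c24_count (h : Nat.card G = 24) (h6 : ∀ g : G, orderOf g ≠ 6) : Nat.card (Sylow 3 G) = 4 := by
  haveI : Fact (Nat.Prime 3) := ⟨Nat.prime_three⟩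
  haveI : Fact (Nat.Prime 2) := ⟨Nat.prime_two⟩
  obtain ⟨P⟩ := (inferInstance : Nonempty (Sylow 3 G))
  have hP3 := c24_syl3 h P
  have h1 : Nat.card (Sylow 3 G) ≡ 1 [MOD 3] := card_sylow_modEq_one 3 G
  have h2 : Nat.card (Sylow 3 G) ∣ (P : Subgroup G).index := P.card_dvd_index
  have h3 : (P : Subgroup G).index = 8 := by
    have := (P : Subgroup G).card_mul_index
    rw [hP3, h] at this
    omega
  rw [h3] at h2
  have h4 : Nat.card (Sylow 3 G) ≤ 8 := Nat.le_of_dvd (by norm_num) h2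
  have h5 : Nat.card (Sylow 3 G) = 1 ∨ Nat.card (Sylow 3 G) = 4 := by
    generalize Nat.card (Sylow 3 G) = n at *
    unfold Nat.ModEq at h1
    interval_cases n <;> simp_all
  refine h5.resolve_left ?_
  intro h1'
  -- P normal
  have hPn : (P : Subgroup G).Normal := by
    have hs : Subsingleton (Sylow 3 G) := (Nat.card_eq_one_iff_unique.1 h1').1
    rw [← normalizer_eq_top_iff, eq_top_iff]
    intro g _
    exact Sylow.smul_eq_iff_mem_normalizer.1 (Subsingleton.elim _ _)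
  obtain ⟨x, hx, hxo⟩ : ∃ x ∈ (P : Subgroup G), orderOf x = 3 := by
    obtain ⟨y, hy⟩ := exists_prime_orderOf_dvd_card' (G := ↥(P : Subgroup G)) 3 (by rw [hP3])
    exact ⟨y, y.2, by rw [Subgroup.orderOf_coe, hy]⟩
  have hxP : zpowers x = (P : Subgroup G) := by
    apply Subgroup.eq_of_le_of_card_ge (zpowers_le.2 hx)
    rw [hP3, Nat.card_zpowers, hxo]
  have hinv : ∀ g : G, g * x * g⁻¹ = x ∨ g * x * g⁻¹ = x⁻¹ := by
    classical
    intro g
    have h7 : g * x * g⁻¹ ∈ zpowers x := by rw [hxP]; exact hPn.conj_mem x hx g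
    obtain ⟨k, hk, hk'⟩ := Finset.mem_image.1 ((mem_zpowers_iff_mem_range_orderOf (x := x)).1 h7)
    rw [hxo, Finset.mem_range] at hk
    interval_cases k
    · exfalso
      rw [pow_zero] at hk'
      have : x = 1 := by
        have h8 := congrArg (fun t => g⁻¹ * t * g) hk'
        simpa [mul_assoc] using h8.symm
      rw [this, orderOf_one] at hxo
      omega
    · left; rw [← hk', pow_one]
    · right
      rw [← hk']
      apply eq_inv_of_mul_eq_one_left
      rw [← pow_succ]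
      have h8 := pow_orderOf_eq_one x
      rw [hxo] at h8
      exact h8
  obtain ⟨Q⟩ := (inferInstance : Nonempty (Sylow 2 G))
  have hQ8 : Nat.card ↥(Q : Subgroup G) = 8 := by
    have h1 := (Q : Subgroup G).card_mul_index
    have h2' := Q.not_dvd_index
    obtain ⟨n, hn⟩ := IsPGroup.iff_card.1 Q.2
    rw [hn, h] at h1
    rw [hn]
    have h3' : n < 5 := by
      by_contra hc
      have h4' := Nat.pow_le_pow_right (n := 2) (by norm_num) (not_lt.1 hc)
      have h5' : 2 ^ n ≤ 24 := Nat.le_of_dvd (by norm_num) (Dvd.intro _ h1)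
      omega
    generalize (Q : Subgroup G).index = i at *
    interval_cases n <;> omega
  have hnc : ∀ q ∈ (Q : Subgroup G), q ≠ 1 → q * x * q⁻¹ = x⁻¹ := by
    intro q hq hq1
    refine (hinv q).resolve_left fun h8 => hq1 ?_
    exact c24_triv h6 hxo Q.2 hq (mul_inv_eq_iff_eq_mul.1 h8).symm
  have huniq : ∀ q ∈ (Q : Subgroup G), ∀ r ∈ (Q : Subgroup G), q ≠ 1 → r ≠ 1 → q * r = 1 := by
    intro q hq r hr hq1 hr1
    refine c24_triv h6 hxo Q.2 (mul_mem hq hr) ?_
    have e1 := hnc q hq hq1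
    have e2 := hnc r hr hr1
    have e3 : q * x⁻¹ * q⁻¹ = x := by
      have := congrArg (fun t => t⁻¹) e1
      simpa [mul_assoc] using this
    have e4 : q * r * x * (q * r)⁻¹ = x := by
      have : q * r * x * (q * r)⁻¹ = q * (r * x * r⁻¹) * q⁻¹ := by group
      rw [this, e2, e3]
    exact (mul_inv_eq_iff_eq_mul.1 e4).symm
  -- Q has at most 2 elements
  obtain ⟨q, hq, hq1⟩ : ∃ q ∈ (Q : Subgroup G), q ≠ 1 := by
    by_contra hcon
    push Not at hcon
    have : (Q : Subgroup G) = ⊥ := (eq_bot_iff_forall _).2 hcon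
    rw [this, Subgroup.card_bot] at hQ8
    omega
  have hle : (Q : Subgroup G) ≤ zpowers q := by
    intro r hr
    by_cases hr1 : r = 1
    · rw [hr1]; exact one_mem _
    · have := huniq q hq r hr hq1 hr1
      rw [eq_inv_of_mul_eq_one_right this]
      exact inv_mem (mem_zpowers q)
  have h9 := Subgroup.card_le_of_le hle
  have h10 : orderOf q ∣ 2 := orderOf_dvd_of_pow_eq_one (by rw [pow_two]; exact huniq q hq q hq hq1 hq1)
  have h11 := Nat.le_of_dvd (by norm_num) h10
  rw [hQ8, Nat.card_zpowers] at h9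
  omega

theorem s1012 (h : Nat.card G = 24) (h6 : ∀ g : G, orderOf g ≠ 6) : Nonempty (G ≃* Equiv.Perm (Fin 4)) := by
  haveI : Fact (Nat.Prime 3) := ⟨Nat.prime_three⟩
  haveI : Fact (Nat.Prime 2) := ⟨Nat.prime_two⟩
  have hn := c24_count h h6
  obtain ⟨f, hf⟩ : ∃ f : G →* Equiv.Perm (Sylow 3 G), f = MulAction.toPermHom G (Sylow 3 G) := ⟨_, rfl⟩
  obtain ⟨K, hK⟩ : ∃ K, K = f.ker := ⟨_, rfl⟩
  haveI hKn : K.Normal := by rw [hK]; infer_instance
  have hKN : ∀ P : Sylow 3 G, K ≤ normalizer ((P : Subgroup G) : Set G) := by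
    intro P k hk
    rw [hK, MonoidHom.mem_ker, hf] at hk
    exact Sylow.smul_eq_iff_mem_normalizer.1 (congrArg (fun e : Equiv.Perm (Sylow 3 G) => e P) hk)
  have h3 : ¬ 3 ∣ Nat.card ↥K := by
    intro hd
    obtain ⟨y, hy⟩ := exists_prime_orderOf_dvd_card' (G := ↥K) 3 hd
    have hyo : orderOf (y : G) = 3 := by rw [Subgroup.orderOf_coe, hy]
    have key : ∀ P : Sylow 3 G, (P : Subgroup G) = zpowers (y : G) := by
      intro P
      have h1 : IsPGroup 3 ↥(zpowers (y : G)) := IsPGroup.of_card (n := 1) (by rw [Nat.card_zpowers, hyo, pow_one])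
      have h2 : zpowers (y : G) ≤ normalizer ((P : Subgroup G) : Set G) := zpowers_le.2 (hKN P y.2)
      have h4 : IsPGroup 3 ↥((P : Subgroup G) ⊔ zpowers (y : G)) := by
        rw [sup_comm]
        exact h1.to_sup_of_normal_right' P.2 h2
      have h5 := P.3 h4 le_sup_left
      have h7 : zpowers (y : G) ≤ (P : Subgroup G) := by rw [← h5]; exact le_sup_right
      exact (Subgroup.eq_of_le_of_card_ge h7 (by rw [c24_syl3 h P, Nat.card_zpowers, hyo])).symm
    have hs : Subsingleton (Sylow 3 G) := ⟨fun P Q => Sylow.ext ((key P).trans (key Q).symm)⟩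
    have := Finite.card_le_one_iff_subsingleton.2 hs
    omega
  have hK2 : IsPGroup 2 ↥K := by
    have h1 : Nat.card ↥K ∣ 24 := by rw [← h]; exact K.card_subgroup_dvd_card
    have h2 : Nat.card ↥K ∣ 2 ^ 3 := by
      have h4 : (24 : ℕ) = 3 * 2 ^ 3 := by norm_num
      rw [h4] at h1
      exact (((Nat.Prime.coprime_iff_not_dvd Nat.prime_three).2 h3).symm).dvd_of_dvd_mul_left h1
    obtain ⟨m, -, hm⟩ := (Nat.dvd_prime_pow Nat.prime_two).1 h2
    exact IsPGroup.of_card hm
  have hKbot : K = ⊥ := by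
    rw [eq_bot_iff]
    intro k hk
    rw [mem_bot]
    obtain ⟨P⟩ := (inferInstance : Nonempty (Sylow 3 G))
    obtain ⟨y, hy⟩ := exists_prime_orderOf_dvd_card' (G := ↥(P : Subgroup G)) 3 (by rw [c24_syl3 h P])
    have hyo : orderOf (y : G) = 3 := by rw [Subgroup.orderOf_coe, hy]
    refine c24_triv h6 hyo hK2 hk ?_
    have h1 : (y : G) * k * (y : G)⁻¹ * k⁻¹ ∈ K := mul_mem (hKn.conj_mem k hk y) (inv_mem hk)
    have h2 : (y : G) * k * (y : G)⁻¹ * k⁻¹ ∈ (P : Subgroup G) := by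
      have e : (y : G) * k * (y : G)⁻¹ * k⁻¹ = y * (k * (y : G)⁻¹ * k⁻¹) := by group
      rw [e]
      exact mul_mem y.2 (le_norm_iff.1 (hKN P) k hk _ (inv_mem y.2))
    have h4 : K ⊓ (P : Subgroup G) = ⊥ := by
      apply Subgroup.inf_eq_bot_of_coprime
      rw [c24_syl3 h P]
      exact ((Nat.Prime.coprime_iff_not_dvd Nat.prime_three).2 h3).symm
    have h5 : (y : G) * k * (y : G)⁻¹ * k⁻¹ ∈ K ⊓ (P : Subgroup G) := ⟨h1, h2⟩
    rw [h4, mem_bot] at h5
    have h7 := mul_inv_eq_one.1 h5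
    exact mul_inv_eq_iff_eq_mul.1 h7
  have hinj : Function.Injective f := by rw [← MonoidHom.ker_eq_bot_iff, ← hK, hKbot]
  have hbij : Function.Bijective f := by
    rw [Nat.bijective_iff_injective_and_card]
    refine ⟨hinj, ?_⟩
    rw [Nat.card_perm, hn, h]; rfl
  have e1 : Sylow 3 G ≃ Fin 4 := Finite.equivFinOfCardEq hn
  exact ⟨(MulEquiv.ofBijective f hbij).trans (e1.permCongrHom)⟩

end

end Cfsg.Agent.H6
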