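import Cfsg.Agent.H6.Section
import Cfsg.Agent.H6.SnJoin
import Cfsg.Agent.H7.Dihedral
import Cfsg.Agent.L0.Coprime

set_option autoImplicit false
set_option linter.unusedSectionVars false
set_option linter.unusedSimpArgs false
open Cfsg Subgroup
open scoped Pointwise

namespace Cfsg.Agent.H6

section
variable {G : Type*} [Group G] [Finite G] {p : ℕ} [hp : Fact p.Prime]

/-- (iii) → (i) -/
theorem dih_of_invert (hp2 : p ≠ 2) {x y : G} {k j : ℕ} (hx : orderOf x = 2 ^ k) (hy : orderOf y = p ^ j) (hy1 : y ≠ 1)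
    (hinv : x * y * x⁻¹ = y⁻¹) : Involves (DihedralGroup p) G := by
  -- element of order p
  obtain ⟨z, hz, hzinv⟩ : ∃ z : G, orderOf z = p ∧ x * z * x⁻¹ = z⁻¹ := by
    have hj : j ≠ 0 := by
      rintro rfl
      rw [pow_zero, orderOf_eq_one_iff] at hy
      exact hy1 hy
    obtain ⟨i, rfl⟩ := Nat.exists_eq_succ_of_ne_zero hj
    refine ⟨y ^ p ^ i, ?_, ?_⟩
    · rw [orderOf_pow_of_dvd (pow_ne_zero _ hp.out.ne_zero) (by rw [hy]; exact pow_dvd_pow _ (Nat.le_succ i)), hy, pow_succ,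
        Nat.mul_div_cancel_left _ (pow_pos hp.out.pos _)]
    · rw [← conj_pow, hinv, inv_pow]
  have hz1 : z ≠ 1 := by
    rintro rfl
    rw [orderOf_one] at hz
    exact hp.out.one_lt.ne hz
  have hzz : z * z ≠ 1 := by
    intro h
    have : orderOf z ∣ 2 := orderOf_dvd_of_pow_eq_one (by rw [pow_two]; exact h)
    rw [hz] at this
    exact hp2 ((Nat.prime_dvd_prime_iff_eq hp.out Nat.prime_two).1 this)
  have hk : k ≠ 0 := by
    rintro rfl
    rw [pow_zero, orderOf_eq_one_iff] at hx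
    rw [hx, one_mul, inv_one, mul_one] at hzinv
    apply hzz
    nth_rw 1 [hzinv]
    exact inv_mul_cancel z
  obtain ⟨m, rfl⟩ := Nat.exists_eq_succ_of_ne_zero hk
  have hx2 : orderOf (x ^ 2) = 2 ^ m := by
    rw [orderOf_pow_of_dvd two_ne_zero (by rw [hx, pow_succ]; exact Dvd.intro_left _ rfl), hx, pow_succ,
      Nat.mul_div_cancel _ two_pos]
  have hnorm : zpowers x ≤ normalizer (zpowers z : Set G) := by
    rw [zpowers_le, mem_norm]
    show (zpowers z).map _ = _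
    rw [MonoidHom.map_zpowers]
    show zpowers (x * z * x⁻¹) = _
    rw [hzinv, zpowers_inv]
  obtain ⟨K, hK⟩ : ∃ K, K = zpowers z ⊔ zpowers x := ⟨_, rfl⟩
  have hzK : z ∈ K := by rw [hK]; exact mem_sup_left (mem_zpowers z)
  have hxK : x ∈ K := by rw [hK]; exact mem_sup_right (mem_zpowers x)
  have hcop : Nat.Coprime (Nat.card ↥(zpowers z)) (Nat.card ↥(zpowers x)) := by
    rw [Nat.card_zpowers, Nat.card_zpowers, hz, hx]
    exact Nat.Coprime.pow_right _ ((Nat.coprime_primes hp.out Nat.prime_two).2 hp2)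
  have hinf : zpowers z ⊓ zpowers x = ⊥ := Subgroup.inf_eq_bot_of_coprime hcop
  have hcard : Nat.card ↥K = p * 2 ^ (m + 1) := by
    rw [hK, L0.card_sup_of_normalizes hnorm hinf, Nat.card_zpowers, Nat.card_zpowers, hz, hx]
  obtain ⟨xK, hxKe⟩ : ∃ xK : ↥K, (xK : G) = x := ⟨⟨x, hxK⟩, rfl⟩
  obtain ⟨zK, hzKe⟩ : ∃ zK : ↥K, (zK : G) = z := ⟨⟨z, hzK⟩, rfl⟩
  have hcent : ∀ g : ↥K, g * xK ^ 2 = xK ^ 2 * g := by
    have h1 : K ≤ centralizer ({x ^ 2} : Set G) := by
      rw [hK, sup_le_iff, zpowers_le, zpowers_le, mem_centralizer_singleton_iff, mem_centralizer_singleton_iff]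
      refine ⟨?_, ?_⟩
      · have e1 : x * z = z⁻¹ * x := mul_inv_eq_iff_eq_mul.1 hzinv
        have e2 : x * z⁻¹ = z * x := by
          have h3 : x * z⁻¹ * x⁻¹ = z := by
            have := congrArg (fun t => t⁻¹) hzinv
            simpa [mul_assoc] using this
          exact mul_inv_eq_iff_eq_mul.1 h3
        rw [pow_two, mul_assoc x x z, e1, ← mul_assoc x z⁻¹ x, e2, mul_assoc z x x]
      · rw [← pow_succ, ← pow_succ']
    intro g
    apply Subtype.ext
    push_cast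
    rw [hxKe]
    exact mem_centralizer_singleton_iff.1 (h1 g.2)
  obtain ⟨N, hN⟩ : ∃ N, N = zpowers (xK ^ 2) := ⟨_, rfl⟩
  haveI hNn : N.Normal := by
    constructor
    intro n hn g
    rw [hN] at hn ⊢
    obtain ⟨i, rfl⟩ := mem_zpowers_iff.1 hn
    have h1 : Commute g (xK ^ 2) := hcent g
    have h2 : g * (xK ^ 2) ^ i = (xK ^ 2) ^ i * g := h1.zpow_right i
    rw [h2, mul_inv_cancel_right]
    exact hn
  have hRS : (QuotientGroup.mk' N) xK * (QuotientGroup.mk' N) zK * ((QuotientGroup.mk' N) xK)⁻¹ = ((QuotientGroup.mk' N) zK)⁻¹ := by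
    rw [← map_inv, ← map_mul, ← map_mul, ← map_inv]
    congr 1
    apply Subtype.ext
    push_cast
    rw [hxKe, hzKe]; exact hzinv
  have hSS : (QuotientGroup.mk' N) xK * (QuotientGroup.mk' N) xK = 1 := by
    rw [← map_mul]
    refine (QuotientGroup.eq_one_iff _).2 ?_
    rw [hN, ← pow_two]; exact mem_zpowers _
  have hS1 : ((QuotientGroup.mk' N) xK)⁻¹ = (QuotientGroup.mk' N) xK := inv_eq_of_mul_eq_one_left hSS
  have hRp : orderOf ((QuotientGroup.mk' N) zK) = p := by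
    apply orderOf_eq_prime
    · rw [← map_pow]
      have : zK ^ p = 1 := by
        apply Subtype.ext
        push_cast
        rw [hzKe, ← hz, pow_orderOf_eq_one]
      rw [this, map_one]
    · intro h
      have h1 : zK ∈ N := (QuotientGroup.eq_one_iff _).1 h
      rw [hN] at h1
      obtain ⟨i, hi⟩ := mem_zpowers_iff.1 h1
      have h2 : z = (x ^ 2) ^ i := by
        rw [← hzKe, ← hi]; push_cast; rw [hxKe]
      have h3 : z ∈ zpowers z ⊓ zpowers x := mem_inf.2 ⟨mem_zpowers z, by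
        rw [h2]; exact zpow_mem (pow_mem (mem_zpowers x) _) _⟩
      rw [hinf, mem_bot] at h3
      exact hz1 h3
  have hSR : (QuotientGroup.mk' N) xK * (QuotientGroup.mk' N) zK * (QuotientGroup.mk' N) xK = ((QuotientGroup.mk' N) zK)⁻¹ := by
    rw [← hRS, hS1]
  have hSn : (QuotientGroup.mk' N) xK ∉ zpowers ((QuotientGroup.mk' N) zK) := by
    intro h
    obtain ⟨i, hi⟩ := mem_zpowers_iff.1 h
    have h1 : Commute ((QuotientGroup.mk' N) xK) ((QuotientGroup.mk' N) zK) := by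
      rw [← hi]; exact (Commute.refl _).zpow_left i
    have h2 : (QuotientGroup.mk' N) zK = ((QuotientGroup.mk' N) zK)⁻¹ := by
      have h2' := hRS
      rw [h1.eq, mul_inv_cancel_right] at h2'
      exact h2'
    have h3 : orderOf ((QuotientGroup.mk' N) zK) ∣ 2 := orderOf_dvd_of_pow_eq_one (by
      rw [pow_two]; nth_rw 2 [h2]; exact mul_inv_cancel _)
    rw [hRp] at h3
    exact hp2 ((Nat.prime_dvd_prime_iff_eq hp.out Nat.prime_two).1 h3)
  have hcN : Nat.card ↥N = 2 ^ m := by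
    rw [hN, Nat.card_zpowers, ← Subgroup.orderOf_coe]
    push_cast
    rw [hxKe, hx2]
  have hcQ : Nat.card (↥K ⧸ N) = 2 * p := by
    have h1 := Subgroup.card_eq_card_quotient_mul_card_subgroup N
    rw [hcard, hcN] at h1
    apply Nat.eq_of_mul_eq_mul_right (pow_pos two_pos m)
    rw [← h1, pow_succ]; ring
  obtain ⟨e⟩ := H7.dihedral_equiv _ _ hRp hSS hSR hSn hcQ
  exact Sec.involves ⟨K, e.toMonoidHom.comp (QuotientGroup.mk' N), e.surjective.comp (QuotientGroup.mk'_surjective _)⟩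

theorem two_step {P : Subgroup G} (k : ℕ) : ∀ x : G, x ^ 2 ^ k = 1 → x ∉ centralizer (P : Set G) →
    ∃ w ∈ zpowers x, w ∉ centralizer (P : Set G) ∧ w ^ 2 ∈ centralizer (P : Set G) := by
  induction k with
  | zero =>
    intro x hx hxc
    rw [pow_zero, pow_one] at hx
    rw [hx] at hxc
    exact absurd (one_mem _) hxc
  | succ k ih =>
    intro x hx hxc
    by_cases h : x ^ 2 ∈ centralizer (P : Set G)
    · exact ⟨x, mem_zpowers x, hxc, h⟩
    · obtain ⟨w, hw, h1, h2⟩ := ih (x ^ 2) (by rw [← pow_mul, ← pow_succ']; exact hx) h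
      exact ⟨w, (zpowers_le.2 (pow_mem (mem_zpowers x) 2)) hw, h1, h2⟩

theorem invert_of_norm {x : G} {P : Subgroup G} {k : ℕ} (hx : orderOf x = 2 ^ k) (hP : IsPGroup p ↥P)
    (hn : x ∈ normalizer (P : Set G)) (hc : x ∉ centralizer (P : Set G)) :
    ∃ x y : G, (∃ k : ℕ, orderOf x = 2 ^ k) ∧ (∃ k : ℕ, orderOf y = p ^ k) ∧ y ≠ 1 ∧ x * y * x⁻¹ = y⁻¹ := by
  obtain ⟨w, hw, h1, h2⟩ := two_step k x (by rw [← hx]; exact pow_orderOf_eq_one x) hc
  have hwn : w ∈ normalizer (P : Set G) := (zpowers_le.2 hn) hw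
  obtain ⟨g, hg, hgw⟩ : ∃ g ∈ P, g * w ≠ w * g := by
    by_contra hcon
    push Not at hcon
    exact h1 (mem_centralizer_iff.2 fun g hg => hcon g hg)
  have hwg : w * g⁻¹ * w⁻¹ ∈ P := le_norm_iff.1 (le_refl (normalizer (P : Set G))) w hwn _ (inv_mem hg)
  have hu : g * (w * g⁻¹ * w⁻¹) ∈ P := mul_mem hg hwg
  refine ⟨w, g * (w * g⁻¹ * w⁻¹), ?_, ?_, ?_, ?_⟩
  · have : orderOf w ∣ 2 ^ k := by rw [← hx]; exact orderOf_dvd_of_mem_zpowers hw
    obtain ⟨m, -, hm⟩ := (Nat.dvd_prime_pow Nat.prime_two).1 this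
    exact ⟨m, hm⟩
  · obtain ⟨m, hm⟩ := IsPGroup.iff_orderOf.1 hP ⟨_, hu⟩
    exact ⟨m, by rw [← hm, Subgroup.orderOf_mk]⟩
  · intro h
    apply hgw
    have h3 : g = w * g * w⁻¹ := (mul_eq_one_iff_eq_inv.1 h).trans (by group)
    exact eq_mul_inv_iff_mul_eq.1 h3
  · have h4 : w ^ 2 * g⁻¹ = g⁻¹ * w ^ 2 := (mem_centralizer_iff.1 h2 _ (inv_mem hg)).symm
    have e : w * (g * (w * g⁻¹ * w⁻¹)) * w⁻¹ = (w * g * w⁻¹) * (w ^ 2 * g⁻¹) * (w ^ 2)⁻¹ := by
      rw [pow_two]; group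
    rw [e, h4]; group

theorem norm_of_dih (hp2 : p ≠ 2) (h : Involves (DihedralGroup p) G) :
    ∃ (x : G) (P : Subgroup G), (∃ k : ℕ, orderOf x = 2 ^ k) ∧ IsPGroup p ↥P ∧ x ∈ Subgroup.normalizer (P : Set G) ∧ x ∉ Subgroup.centralizer (P : Set G) := by
  obtain ⟨K, f, hf⟩ := Sec.of_involves h
  haveI : NeZero p := ⟨hp.out.ne_zero⟩
  obtain ⟨Z, hZ⟩ : ∃ Z, Z = zpowers (DihedralGroup.r 1 : DihedralGroup p) := ⟨_, rfl⟩
  have hZr : ∀ i : ZMod p, DihedralGroup.r i ∈ Z := by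
    intro i
    rw [hZ, mem_zpowers_iff]
    refine ⟨(i.val : ℤ), ?_⟩
    rw [zpow_natCast, DihedralGroup.r_one_pow, ZMod.natCast_val, ZMod.cast_id]
  have hZm : ∀ z ∈ Z, ∃ i : ZMod p, z = DihedralGroup.r i := by
    intro z hz
    rw [hZ] at hz
    obtain ⟨i, rfl⟩ := mem_zpowers_iff.1 hz
    exact ⟨i, by rw [DihedralGroup.r_one_zpow]⟩
  haveI hZn : Z.Normal := by
    constructor
    intro z hz g
    obtain ⟨i, rfl⟩ := hZm z hz
    rcases g with j | j
    · rw [DihedralGroup.inv_r, DihedralGroup.r_mul_r, DihedralGroup.r_mul_r]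
      exact hZr _
    · rw [DihedralGroup.inv_sr, DihedralGroup.sr_mul_r, DihedralGroup.sr_mul_sr]
      exact hZr _
  have hZp : IsPGroup p ↥Z := by
    refine IsPGroup.of_card (n := 1) ?_
    rw [hZ, Nat.card_zpowers, DihedralGroup.orderOf_r_one, pow_one]
  obtain ⟨C, hC⟩ : ∃ C, C = Z.comap f := ⟨_, rfl⟩
  haveI hCn : C.Normal := by rw [hC]; exact hZn.comap f
  obtain ⟨P⟩ := (inferInstance : Nonempty (Sylow p ↥C))
  obtain ⟨P₀, hP₀⟩ : ∃ P₀, P₀ = (P : Subgroup ↥C).map C.subtype := ⟨_, rfl⟩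
  have hfr := Sylow.normalizer_sup_eq_top P
  rw [← hP₀] at hfr
  have hs : SylIn p P₀ C := by rw [hP₀]; exact sylow_sylIn P
  have hs2 := hs.map_hom f
  have hCf : C.map f = Z := by rw [hC]; exact Subgroup.map_comap_eq_self_of_surjective hf Z
  rw [hCf] at hs2
  have hPZ : Z ≤ P₀.map f := (hs2.eq_of_le hZp le_rfl hs2.le).ge
  have htop : (normalizer (P₀ : Set ↥K)).map f = ⊤ := by
    rw [eq_top_iff, ← Subgroup.map_top_of_surjective f hf, ← hfr, Subgroup.map_sup, hCf]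
    exact sup_le le_rfl (hPZ.trans (Subgroup.map_mono le_normalizer))
  obtain ⟨n, hn, hnf⟩ : (DihedralGroup.sr 0 : DihedralGroup p) ∈ (normalizer (P₀ : Set ↥K)).map f := by rw [htop]; exact mem_top _
  obtain ⟨a, b, hb, hab⟩ := Nat.exists_eq_pow_mul_and_not_dvd (orderOf_pos n).ne' 2 (by norm_num)
  have hbo : Odd b := by rw [← Nat.not_even_iff_odd, even_iff_two_dvd]; exact hb
  have hsr : (DihedralGroup.sr 0 : DihedralGroup p) ^ b = DihedralGroup.sr 0 := by
    obtain ⟨c, rfl⟩ := hbo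
    rw [pow_succ, pow_mul, pow_two, DihedralGroup.sr_mul_self, one_pow, one_mul]
  have hfx : f (n ^ b) = DihedralGroup.sr 0 := by rw [map_pow, hnf, hsr]
  refine ⟨((n ^ b : ↥K) : G), P₀.map K.subtype, ?_, ?_, ?_, ?_⟩
  · have h1 : orderOf (n ^ b) ∣ 2 ^ a := orderOf_dvd_of_pow_eq_one (by
      rw [← pow_mul, mul_comm, ← hab, pow_orderOf_eq_one])
    obtain ⟨m, -, hm⟩ := (Nat.dvd_prime_pow Nat.prime_two).1 h1
    exact ⟨m, by rw [Subgroup.orderOf_coe, hm]⟩
  · exact hs.isPGroup.map _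
  · exact Subgroup.le_normalizer_map K.subtype ⟨n ^ b, pow_mem hn _, rfl⟩
  · intro hcon
    obtain ⟨q, hq, hqf⟩ := hPZ (hZr 1)
    have h1 := mem_centralizer_iff.1 hcon (q : G) ⟨q, hq, rfl⟩
    have h2 : q * n ^ b = n ^ b * q := Subtype.ext h1
    have h3 := congrArg f h2
    rw [map_mul, map_mul, hfx, hqf, DihedralGroup.r_mul_sr, DihedralGroup.sr_mul_r] at h3
    have h4 : (0 - 1 : ZMod p) = 0 + 1 := DihedralGroup.sr.inj h3
    have h5 : ((2 : ℕ) : ZMod p) = 0 := by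
      have : (1 : ZMod p) + 1 = 0 := by
        have h6 := sub_eq_zero.2 h4
        have h7 : (0 - 1 - (0 + 1) : ZMod p) = -(1 + 1) := by ring
        rw [h7, neg_eq_zero] at h6
        exact h6
      push_cast
      rw [← this]; norm_num
    have h6 := (ZMod.natCast_eq_zero_iff 2 p).1 h5
    exact hp2 ((Nat.prime_dvd_prime_iff_eq hp.out Nat.prime_two).1 h6)

end

end Cfsg.Agent.H6
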