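import Cfsg.Agent.H6.QdRank4
import Cfsg.Agent.H6.KFun

set_option autoImplicit false
set_option linter.unusedSectionVars false
set_option linter.unusedSimpArgs false
set_option linter.unusedVariables false
set_option linter.style.haveILetI false
open Cfsg
open scoped commutatorElement

namespace Cfsg.Agent.H6

section
open Matrix
open Cfsg.Agent.H2
variable {p : ℕ} [hp : Fact p.Prime]

theorem uT_act (a : ZMod p) (w : Fin 2 → ZMod p) : (uT a).1.mulVec w = ![w 0 + a * w 1, w 1] := by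
  ext i; fin_cases i <;> simp [uT, Matrix.mulVec, dotProduct, Fin.sum_univ_two]

theorem qe_uT_mul (a b : ZMod p) (v w : Fin 2 → ZMod p) :
    qe (uT a) v * qe (uT b) w = qe (uT (a + b)) ![v 0 + w 0 + a * w 1, v 1 + w 1] := by
  rw [qe_mul, uT_mul, uT_act]
  congr 1
  ext i; fin_cases i <;> simp [add_assoc]

theorem qe_uT_inv (a : ZMod p) (v : Fin 2 → ZMod p) : (qe (uT a) v)⁻¹ = qe (uT (-a)) ![a * v 1 - v 0, - v 1] := by
  rw [inv_eq_iff_mul_eq_one, qe_uT_mul, ← qe_one]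
  congr 1
  · rw [add_neg_cancel, uT_zero]
  · ext i; fin_cases i <;> simp

/-- the Sylow subgroup -/
def qT (p : ℕ) [hp : Fact p.Prime] : Subgroup ↥(qd p) where
  carrier := {x | ∃ a v, x = qe (uT a) v}
  one_mem' := ⟨0, 0, by rw [uT_zero, qe_one]⟩
  mul_mem' := by
    rintro _ _ ⟨a, v, rfl⟩ ⟨b, w, rfl⟩
    exact ⟨_, _, qe_uT_mul a b v w⟩
  inv_mem' := by
    rintro _ ⟨a, v, rfl⟩
    exact ⟨_, _, qe_uT_inv a v⟩

/-- the other abelian normal subgroup -/
def qV' (p : ℕ) [hp : Fact p.Prime] : Subgroup ↥(qd p) where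
  carrier := {x | ∃ a b, x = qe (uT a) ![b, 0]}
  one_mem' := ⟨0, 0, by
    rw [uT_zero, ← qe_one]; congr 1; ext i; fin_cases i <;> simp⟩
  mul_mem' := by
    rintro _ _ ⟨a, v, rfl⟩ ⟨b, w, rfl⟩
    refine ⟨a + b, v + w, ?_⟩
    rw [qe_uT_mul]; congr 1; ext i; fin_cases i <;> simp
  inv_mem' := by
    rintro _ ⟨a, v, rfl⟩
    refine ⟨-a, -v, ?_⟩
    rw [qe_uT_inv]; congr 1; ext i; fin_cases i <;> simp

theorem qV_normal : (qV p).Normal := by
  constructor
  rintro _ ⟨v, rfl⟩ g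
  obtain ⟨A, w, rfl⟩ := qe_surj g
  exact ⟨_, qe_conj A w v⟩

theorem qV_le_qT : qV p ≤ qT p := by
  rintro _ ⟨v, rfl⟩
  exact ⟨0, v, by rw [uT_zero]⟩

theorem qV'_le_qT : qV' p ≤ qT p := by
  rintro _ ⟨a, b, rfl⟩
  exact ⟨a, _, rfl⟩

theorem qT_isPGroup (h2 : p ≠ 2) : IsPGroup p ↥(qT p) := by
  rintro ⟨_, ⟨a, v, rfl⟩⟩
  refine ⟨1, ?_⟩
  apply Subtype.ext
  change (qe (uT a) v) ^ (p ^ 1) = 1
  have hp2 : (p : ZMod p) = 0 := CharP.cast_eq_zero _ _
  have h4 : ((p.choose 2 : ℕ) : ZMod p) = 0 := by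
    rw [ZMod.natCast_eq_zero_iff]
    exact H1.dvd_choose_two hp.out h2
  rw [pow_one, qe_uT_pow, ← qe_one]
  congr 1
  · rw [hp2, zero_mul, uT_zero]
  · rw [h4, hp2]
    ext i; fin_cases i <;> simp

theorem qT_max {P : Subgroup ↥(qd p)} (hP : IsPGroup p ↥P) (hle : qT p ≤ P) : P = qT p := by
  haveI := qV_normal (p := p)
  have hVP : qV p ≤ P := qV_le_qT.trans hle
  obtain ⟨v, hv, hv1, hvN⟩ := exists_fixed_mod (G := ↥P) hP.isNilpotent (A := ⊥) (B := (qV p).subgroupOf P)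
    (Q := ⊤) (norm_of_normal _) (by
      intro h3
      have h4 := Subgroup.map_mono (f := P.subtype) h3
      rw [Subgroup.map_subgroupOf_eq_of_le hVP, Subgroup.map_bot] at h4
      have h5 : qe 1 ![(1 : ZMod p), 0] ∈ (⊥ : Subgroup ↥(qd p)) := h4 ⟨_, rfl⟩
      rw [Subgroup.mem_bot, ← qe_one] at h5
      have := congrFun (qe_inj h5).2 0
      simp at this)
  obtain ⟨w, hw⟩ : ∃ w, (v : ↥(qd p)) = qe 1 w := hv
  have hcom : ∀ x ∈ P, x * qe 1 w * x⁻¹ = qe 1 w := by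
    intro x hx
    have h5 := hvN ⟨x, hx⟩ (Subgroup.mem_top _)
    rw [Subgroup.mem_bot, commutatorElement_eq_one_iff_mul_comm] at h5
    have h6 : (v : ↥(qd p)) * x = x * v := congrArg Subtype.val h5
    rw [hw] at h6
    rw [← h6]; group
  have hw1 : w 1 = 0 := by
    have h5 := hcom (qe (uT 1) 0) (hle ⟨1, 0, rfl⟩)
    rw [qe_conj, uT_act] at h5
    have := congrFun (qe_inj h5).2 0
    simpa using this
  have hw0 : w 0 ≠ 0 := by
    intro h0
    apply hv1
    rw [Subgroup.mem_bot]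
    apply Subtype.ext
    rw [hw]
    change _ = (1 : ↥(qd p))
    rw [← qe_one]
    congr 1
    ext i; fin_cases i <;> assumption
  apply le_antisymm _ hle
  intro x hx
  have h5 := hcom x hx
  obtain ⟨A, u, rfl⟩ := qe_surj x
  rw [qe_conj] at h5
  have h6 := (qe_inj h5).2
  have e0 := congrFun h6 0
  have e1 := congrFun h6 1
  simp only [Matrix.mulVec, dotProduct, Fin.sum_univ_two, hw1, mul_zero, add_zero] at e0 e1
  have a00 : A 0 0 = 1 := by
    have : (A 0 0 - 1) * w 0 = 0 := by linear_combination e0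
    rcases mul_eq_zero.1 this with h | h
    · linear_combination h
    · exact absurd h hw0
  have a10 : A 1 0 = 0 := by
    rcases mul_eq_zero.1 e1 with h | h
    · exact h
    · exact absurd h hw0
  have hdet := sl_det A
  rw [a00, a10, mul_zero, sub_zero, one_mul] at hdet
  refine ⟨A 0 1, u, ?_⟩
  congr 1
  apply sl_ext
  · simpa using a00
  · simp
  · simpa using a10
  · simpa using hdet

end

universe u

theorem le_kInfLower {P : Type u} [Group P] (A : Subgroup P) [A.Normal] (hA : ∀ a ∈ A, ∀ b ∈ A, a * b = b * a) :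
    A ≤ kInfLower P := by
  have h1 := (normal_abelian_mem A ⟨⟨fun a b => Subtype.ext (hA a a.2 b b.2)⟩⟩ (kSeqOdd P 0)).2.1
  exact (le_sSup h1).trans (le_iSup (fun n => kSeqEven P n) 0)

section
open Matrix
open Cfsg.Agent.H2
variable {p : ℕ} [hp : Fact p.Prime]

/-- strong fusion in `Qd(p)` is not controlled by the lower K-infinity subgroup -/
theorem qd_not_control (h2 : p ≠ 2) {X : Type u} [Group X] [Finite X] (e : X ≃* ↥(qd p)) :
    ∃ T : Sylow p X, ¬ ControlsStrongFusion p (inducedFunctor kInfLower (T : Subgroup X)) := by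
  obtain ⟨P0, hP0⟩ : ∃ P : Sylow p ↥(qd p), (P : Subgroup ↥(qd p)) = qT p :=
    ⟨⟨qT p, qT_isPGroup h2, fun hQ hle => qT_max hQ hle⟩, rfl⟩
  set f := e.symm with hf
  obtain ⟨T, hT⟩ : ∃ T : Sylow p X, (T : Subgroup X) = (qT p).map f.toMonoidHom :=
    ⟨P0.mapSurjective (f := f.toMonoidHom) (show Function.Surjective f.toMonoidHom from f.surjective), by
      rw [Sylow.coe_mapSurjective, hP0]⟩
  have hTm : ∀ x : ↥(qd p), x ∈ qT p → f x ∈ (T : Subgroup X) := by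
    intro x hx
    rw [hT]
    exact ⟨x, hx, rfl⟩
  have hTm' : ∀ x ∈ (T : Subgroup X), ∃ y ∈ qT p, f y = x := by
    intro x hx
    rw [hT] at hx
    obtain ⟨y, hy, rfl⟩ := hx
    exact ⟨y, hy, rfl⟩
  refine ⟨T, ?_⟩
  have hU : inducedFunctor kInfLower (T : Subgroup X) = (T : Subgroup X) := by
    have h1 : kInfLower ↥(T : Subgroup X) = ⊤ := by
      haveI : (((qV p).map f.toMonoidHom).subgroupOf (T : Subgroup X)).Normal := by
        haveI := qV_normal (p := p)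
        haveI : ((qV p).map f.toMonoidHom).Normal := this.map _ f.surjective
        infer_instance
      have hA1 := le_kInfLower (((qV p).map f.toMonoidHom).subgroupOf (T : Subgroup X)) (by
        rintro ⟨a, ha⟩ ha' ⟨b, hb⟩ hb'
        obtain ⟨_, ⟨v, rfl⟩, hv⟩ := ha'
        obtain ⟨_, ⟨w, rfl⟩, hw⟩ := hb'
        apply Subtype.ext
        change a * b = b * a
        have hv' : f (qe 1 v) = a := hv
        have hw' : f (qe 1 w) = b := hw
        rw [← hv', ← hw', ← map_mul, ← map_mul, qe_mul_one, qe_mul_one, add_comm])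
      haveI : (((qV' p).map f.toMonoidHom).subgroupOf (T : Subgroup X)).Normal := by
        constructor
        rintro ⟨a, ha⟩ ha' ⟨g, hg⟩
        obtain ⟨_, ⟨c, b, rfl⟩, hv⟩ := ha'
        obtain ⟨_, ⟨d, w, rfl⟩, hw⟩ := hTm' g hg
        have hv' : f (qe (uT c) ![b, 0]) = a := hv
        refine ⟨qe (uT c) ![b - c * w 1, 0], ⟨c, _, rfl⟩, ?_⟩
        change f (qe (uT c) ![b - c * w 1, 0]) = g * a * g⁻¹
        rw [← hv', ← hw, ← map_mul, ← map_inv, ← map_mul]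
        congr 1
        rw [eq_mul_inv_iff_mul_eq, qe_uT_mul, qe_uT_mul]
        congr 1
        · rw [add_comm]
        · ext i
          fin_cases i
          · simp; ring
          · simp
      have hA2 := le_kInfLower (((qV' p).map f.toMonoidHom).subgroupOf (T : Subgroup X)) (by
        rintro ⟨a, ha⟩ ha' ⟨b, hb⟩ hb'
        obtain ⟨_, ⟨v, x, rfl⟩, hv⟩ := ha'
        obtain ⟨_, ⟨w, y, rfl⟩, hw⟩ := hb'
        apply Subtype.ext
        change a * b = b * a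
        have hv' : f (qe (uT v) ![x, 0]) = a := hv
        have hw' : f (qe (uT w) ![y, 0]) = b := hw
        rw [← hv', ← hw', ← map_mul, ← map_mul, qe_uT_mul, qe_uT_mul]
        congr 2
        · rw [add_comm]
        · ext i; fin_cases i <;> simp [add_comm])
      rw [eq_top_iff]
      rintro ⟨x, hx⟩ _
      obtain ⟨_, ⟨a, v, rfl⟩, hxy⟩ := hTm' x hx
      have m1 : f (qe 1 v) ∈ (T : Subgroup X) := hTm _ (qV_le_qT ⟨v, rfl⟩)
      have m2 : f (qe (uT a) ![0, 0]) ∈ (T : Subgroup X) := hTm _ ⟨a, _, rfl⟩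
      have : (⟨x, hx⟩ : ↥(T : Subgroup X)) = ⟨_, m1⟩ * ⟨_, m2⟩ := by
        apply Subtype.ext
        change x = f (qe 1 v) * f (qe (uT a) ![0, 0])
        rw [← hxy, ← map_mul]
        congr 1
        rw [← uT_zero, qe_uT_mul]
        congr 1
        · rw [zero_add]
        · ext i; fin_cases i <;> simp
      rw [this]
      refine Subgroup.mul_mem _ (hA1 ?_) (hA2 ?_)
      · exact ⟨_, ⟨v, rfl⟩, rfl⟩
      · exact ⟨_, ⟨a, 0, rfl⟩, rfl⟩
    unfold inducedFunctor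
    rw [h1, ← MonoidHom.range_eq_map, Subgroup.range_subtype]
  rw [hU]
  rintro ⟨T', hTT', hctl⟩
  have hTe : (T' : Subgroup X) = (T : Subgroup X) := T.3 T'.2 hTT'
  have hz0 : qe 1 ![(1 : ZMod p), 0] ∈ qT p := qV_le_qT ⟨_, rfl⟩
  have hz1 : qe 1 ![(0 : ZMod p), -1] ∈ qT p := qV_le_qT ⟨_, rfl⟩
  have hg : qe (wT p) 0 * qe 1 ![(1 : ZMod p), 0] * (qe (wT p) 0)⁻¹ = qe 1 ![(0 : ZMod p), -1] := by
    rw [qe_conj]
    congr 1
    ext i; fin_cases i <;> simp [wT, Matrix.mulVec, dotProduct, Fin.sum_univ_two]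
  obtain ⟨-, h4⟩ := hctl {f (qe 1 ![(1 : ZMod p), 0])} (by
    rintro _ rfl
    rw [SetLike.mem_coe, hTe]
    exact hTm _ hz0)
  obtain ⟨x, hx, hx2⟩ := h4 (f (qe (wT p) 0)) (by
    rintro _ ⟨_, rfl, rfl⟩
    rw [SetLike.mem_coe, hTe]
    change f (qe (wT p) 0) * f (qe 1 ![(1 : ZMod p), 0]) * (f (qe (wT p) 0))⁻¹ ∈ _
    rw [← map_mul, ← map_inv, ← map_mul, hg]
    exact hTm _ hz1)
  have h5 := hx2 _ rfl
  rw [← map_mul, ← map_inv, ← map_mul, hg] at h5
  -- `x⁻¹ t x` commutes with `z0`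
  have ht : f (qe (uT 1) 0) ∈ (T : Subgroup X) := hTm _ ⟨1, 0, rfl⟩
  have h6 : x⁻¹ * f (qe (uT 1) 0) * x⁻¹⁻¹ ∈ (T : Subgroup X) :=
    (Subgroup.mem_normalizer_iff.1 (Subgroup.inv_mem _ hx) _).1 ht
  obtain ⟨y, ⟨a, v, rfl⟩, hy⟩ := hTm' _ h6
  have h7 : qe (uT a) v * qe 1 ![(1 : ZMod p), 0] = qe 1 ![(1 : ZMod p), 0] * qe (uT a) v := by
    rw [← uT_zero, qe_uT_mul, qe_uT_mul]
    congr 1
    · rw [add_comm]
    · ext i; fin_cases i <;> simp [add_comm]
  have h8 := congrArg f h7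
  rw [map_mul, map_mul, hy, inv_inv] at h8
  have h9 : f (qe (uT 1) 0) * f (qe 1 ![(0 : ZMod p), -1]) = f (qe 1 ![(0 : ZMod p), -1]) * f (qe (uT 1) 0) := by
    rw [h5]
    calc f (qe (uT 1) 0) * (x * f (qe 1 ![(1 : ZMod p), 0]) * x⁻¹)
        = x * ((x⁻¹ * f (qe (uT 1) 0) * x) * f (qe 1 ![(1 : ZMod p), 0])) * x⁻¹ := by group
      _ = x * (f (qe 1 ![(1 : ZMod p), 0]) * (x⁻¹ * f (qe (uT 1) 0) * x)) * x⁻¹ := by rw [h8]
      _ = _ := by group
  rw [← map_mul, ← map_mul] at h9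
  have h10 := f.injective h9
  rw [← uT_zero, qe_uT_mul, qe_uT_mul] at h10
  have := congrFun (qe_inj h10).2 0
  simp at this

end

end Cfsg.Agent.H6
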