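import Cfsg.Agent.H6.KFun
import Cfsg.Agent.H4.Burnside

set_option autoImplicit false
set_option linter.unusedSectionVars false
set_option linter.unusedSimpArgs false
set_option linter.unusedVariables false
set_option linter.style.haveILetI false
open Cfsg
open scoped commutatorElement

namespace Cfsg.Agent.H6

theorem exists_prime_index {G : Type*} [Group G] [Finite G] (h : (⁅(⊤ : Subgroup G), (⊤ : Subgroup G)⁆ : Subgroup G) ≠ ⊤) :
    ∃ N : Subgroup G, N.Normal ∧ N.index.Prime := by
  obtain ⟨M, hM, hcM⟩ := (eq_top_or_exists_le_coatom (⁅(⊤ : Subgroup G), ⊤⁆)).resolve_left h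
  haveI hMn : M.Normal := by
    apply normal_of_norm
    rw [← comm_le_iff_norm]
    exact (Subgroup.commutator_mono le_top le_rfl).trans hcM
  refine ⟨M, hMn, ?_⟩
  have hcomm : ∀ a b : G ⧸ M, a * b = b * a := by
    intro a b
    obtain ⟨x, rfl⟩ := QuotientGroup.mk'_surjective M a
    obtain ⟨y, rfl⟩ := QuotientGroup.mk'_surjective M b
    rw [← map_mul, ← map_mul]
    refine QuotientGroup.eq.2 ?_
    have e : (x * y)⁻¹ * (y * x) = ⁅y⁻¹, x⁻¹⁆ := by rw [commutatorElement_def]; group
    rw [e]
    exact hcM (Subgroup.commutator_mem_commutator (Subgroup.mem_top _) (Subgroup.mem_top _))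
  letI : CommGroup (G ⧸ M) := { (inferInstance : Group (G ⧸ M)) with mul_comm := hcomm }
  haveI : Nontrivial (G ⧸ M) := QuotientGroup.nontrivial_iff.2 hM.1
  haveI : IsSimpleGroup (G ⧸ M) := by
    refine ⟨fun H _ => ?_⟩
    have h1 : M ≤ H.comap (QuotientGroup.mk' M) := by
      intro x hx
      have : QuotientGroup.mk' M x = 1 := (QuotientGroup.eq_one_iff _).2 hx
      change QuotientGroup.mk' M x ∈ H
      rw [this]; exact H.one_mem
    have hsurj := QuotientGroup.mk'_surjective M
    have h3 : H.comap (QuotientGroup.mk' M) = M ∨ H.comap (QuotientGroup.mk' M) = ⊤ := by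
      by_cases he : M = H.comap (QuotientGroup.mk' M)
      · exact Or.inl he.symm
      · exact Or.inr (hM.2 _ (lt_of_le_of_ne h1 he))
    rcases h3 with h2 | h2
    · left
      rw [← Subgroup.map_comap_eq_self_of_surjective hsurj H, h2]
      rw [Subgroup.map_eq_bot_iff, QuotientGroup.ker_mk']
    · right
      rw [← Subgroup.map_comap_eq_self_of_surjective hsurj H, h2, Subgroup.map_top_of_surjective _ hsurj]
  have := IsSimpleGroup.prime_card (α := G ⧸ M)
  rwa [← Subgroup.index_eq_card] at this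

/-- if all Sylow subgroups are self-normalizing and `K` is a proper normal subgroup with `G/K` an `r`-group then `G` is
an `r`-group -/
theorem pgroup_of_selfNorm {G : Type*} [Group G] [Finite G]
    (h : ∀ q : ℕ, q.Prime → q ∣ Nat.card G → ∀ Q : Sylow q G, Subgroup.normalizer ((Q : Subgroup G) : Set G) = Q)
    {r : ℕ} (hr : r.Prime) {K : Subgroup G} [hK : K.Normal] (hKtop : K ≠ ⊤) (hidx : K.index = r) : IsPGroup r G := by
  haveI := Fact.mk hr
  have hcard : ∀ q : ℕ, q.Prime → q ∣ Nat.card G → q = r := by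
    intro q hq hqG
    by_contra hne
    haveI := Fact.mk hq
    obtain ⟨Q⟩ : Nonempty (Sylow q G) := inferInstance
    have hQK : (Q : Subgroup G) ≤ K := by
      intro x hx
      obtain ⟨k, hk⟩ := Q.2 ⟨x, hx⟩
      have hk' : x ^ q ^ k = 1 := by simpa using congrArg Subtype.val hk
      rw [← QuotientGroup.eq_one_iff]
      have h1 : orderOf (x : G ⧸ K) ∣ q ^ k := by
        apply orderOf_dvd_of_pow_eq_one
        rw [← QuotientGroup.mk_pow, hk']; rfl
      have h2 : orderOf (x : G ⧸ K) ∣ r := by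
        have := orderOf_dvd_natCard (x : G ⧸ K)
        rwa [← Subgroup.index_eq_card, hidx] at this
      have hcop : (q ^ k).Coprime r := Nat.Coprime.pow_left k ((Nat.coprime_primes hq hr).2 hne)
      exact orderOf_eq_one_iff.1 (Nat.eq_one_of_dvd_coprimes hcop h1 h2)
    apply hKtop
    rw [eq_top_iff]
    intro g _
    obtain ⟨d, hd, m, hm, rfl⟩ := frattini' Q K g
    rw [inf_eq_left.2 hQK, h q hq hqG Q] at hm
    exact K.mul_mem hd (hQK hm)
  obtain ⟨n, hn⟩ := Nat.exists_eq_pow_mul_and_not_dvd (Nat.card_pos (α := G)).ne' r hr.ne_one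
  obtain ⟨m, hm, hn⟩ := hn
  have hm1 : m = 1 := by
    by_contra hne
    obtain ⟨q, hq, hqm⟩ := Nat.exists_prime_and_dvd hne
    have := hcard q hq (hn ▸ hqm.mul_left _)
    exact hm (this ▸ hqm)
  rw [hm1, mul_one] at hn
  exact IsPGroup.of_card hn

theorem selfNorm_main {G : Type*} [Group G] [Finite G]
    (h : ∀ q : ℕ, q.Prime → q ∣ Nat.card G → ∀ Q : Sylow q G, Subgroup.normalizer ((Q : Subgroup G) : Set G) = Q) :
    ∃ q : ℕ, q.Prime ∧ IsPGroup q G := by
  by_cases h5 : ∃ q : ℕ, q.Prime ∧ q ∣ Nat.card G ∧ 5 ≤ q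
  · obtain ⟨q, hq, hqG, hq5⟩ := h5
    haveI := Fact.mk hq
    refine ⟨q, hq, ?_⟩
    obtain ⟨S⟩ : Nonempty (Sylow q G) := inferInstance
    have hSne : (S : Subgroup G) ≠ ⊥ := by
      intro hbot
      have h1 := S.card_mul_index
      have h2 := S.not_dvd_index
      rw [hbot, Subgroup.card_bot, one_mul] at h1
      have h3 : (S : Subgroup G).index = Nat.card G := by rw [hbot]; exact h1
      rw [h3] at h2
      exact h2 hqG
    obtain ⟨N, hNn, hNi⟩ := exists_index_p_of_not_le S (not_le_comm_of_control isCharP_lower (G := G)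
      (fun H _ _ _ => klike_lower.controlsTransfer hq5) _ G rfl (Sec.refl G) S hSne (by
        intro g hg hgc
        rw [h q hq hqG S] at hg
        obtain ⟨n, hn⟩ := S.2 ⟨g, hg⟩
        have hn' : g ^ q ^ n = 1 := by simpa using congrArg Subtype.val hn
        have : g = 1 := orderOf_eq_one_iff.1 (Nat.eq_one_of_dvd_coprimes (Nat.Coprime.pow_right n hgc) dvd_rfl
          (orderOf_dvd_of_pow_eq_one hn'))
        rw [this]; exact Subgroup.one_mem _))
    haveI := hNn
    refine pgroup_of_selfNorm h hq (K := N) ?_ hNi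
    intro htop
    rw [htop, Subgroup.index_top] at hNi
    exact hq.one_lt.ne hNi
  · push Not at h5
    by_cases h1 : Nat.card G = 1
    · exact ⟨2, Nat.prime_two, IsPGroup.of_card (n := 0) (by rw [h1]; simp)⟩
    -- `|G| = 2^a 3^b`
    obtain ⟨a, m, hm, hn⟩ := Nat.exists_eq_pow_mul_and_not_dvd (Nat.card_pos (α := G)).ne' 2 (by norm_num)
    have hm0 : m ≠ 0 := by rintro rfl; simp at hm
    obtain ⟨b, k, hk, hn2⟩ := Nat.exists_eq_pow_mul_and_not_dvd hm0 3 (by norm_num)
    have hk1 : k = 1 := by
      by_contra hne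
      obtain ⟨q, hq, hqk⟩ := Nat.exists_prime_and_dvd hne
      have hqm : q ∣ m := hn2 ▸ hqk.mul_left _
      have hlt := h5 q hq (hn ▸ hqm.mul_left _)
      have h2 : q ≠ 2 := by rintro rfl; exact hm hqm
      have h3 : q ≠ 3 := by rintro rfl; exact hk hqk
      have h4 := hq.two_le
      interval_cases q
      · exact h2 rfl
      · exact h3 rfl
      · exact absurd hq (by decide)
    have hcard : Nat.card G = 2 ^ a * 3 ^ b := by rw [hn, hn2, hk1, mul_one]
    have hsol : Group.IsSolvable G := H4.burnside_paqb_aux _ G 2 3 a b Nat.prime_two Nat.prime_three hcard rfl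
    -- a normal subgroup of prime index
    have hGG : (⁅(⊤ : Subgroup G), (⊤ : Subgroup G)⁆ : Subgroup G) ≠ ⊤ := by
      intro htop
      have h2 : ∀ n, derivedSeries G n = ⊤ := by
        intro n
        induction n with
        | zero => rfl
        | succ n ih => rw [derivedSeries_succ, ih, htop]
      obtain ⟨n, hn⟩ := (Group.isSolvable_def G).1 hsol
      rw [h2 n] at hn
      apply h1
      rw [← Subgroup.card_top, hn, Subgroup.card_bot]
    obtain ⟨N, hNn, hNi⟩ := exists_prime_index hGG
    haveI := hNn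
    refine ⟨N.index, hNi, pgroup_of_selfNorm h hNi (K := N) ?_ rfl⟩
    intro htop
    rw [htop, Subgroup.index_top] at hNi
    exact Nat.not_prime_one hNi

end Cfsg.Agent.H6
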