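import Cfsg.Agent.H6.PNil4
import Cfsg.Agent.H6.EngelExt

set_option autoImplicit false
set_option linter.unusedSectionVars false
set_option linter.unusedSimpArgs false
set_option linter.unusedVariables false
set_option linter.style.haveILetI false
open Cfsg
open scoped commutatorElement

namespace Cfsg.Agent.H6

universe u

section
variable {p : ℕ} [hp : Fact p.Prime]

/-- `[O^p(H), O^p(H)]` is a `p`-group -/
def XX (p : ℕ) {G : Type*} [Group G] (H : Subgroup G) : Prop := IsPGroup p ↥⁅opR p H, opR p H⁆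

variable {G : Type*} [Group G] [Finite G]

theorem XX.mono {H K : Subgroup G} (h : XX p H) (hKH : K ≤ H) : XX p K :=
  IsPGroup.to_le h (Subgroup.commutator_mono (opR_mono p hKH) (opR_mono p hKH))

theorem XX.map {K : Type*} [Group K] (f : G →* K) {H : Subgroup G} (h : XX p H) : XX p (H.map f) := by
  unfold XX
  rw [opR_map, ← Subgroup.map_commutator]
  exact IsPGroup.map h f

theorem xx_map_iff {K : Type*} [Group K] {f : G →* K} (hf : Function.Injective f) {H : Subgroup G} :
    XX p (H.map f) ↔ XX p H := by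
  unfold XX
  rw [opR_map, ← Subgroup.map_commutator]
  exact ⟨fun h => h.of_equiv (Subgroup.equivMapOfInjective _ f hf).symm, fun h => IsPGroup.map h f⟩

theorem xx_top_iff {H : Subgroup G} : XX p (⊤ : Subgroup ↥H) ↔ XX p H := by
  rw [← xx_map_iff (f := H.subtype) Subtype.val_injective, ← MonoidHom.range_eq_map, Subgroup.range_subtype]

theorem XX.equiv {H K : Type*} [Group H] [Group K] [Finite H] [Finite K] (e : H ≃* K) (h : XX p (⊤ : Subgroup H)) :
    XX p (⊤ : Subgroup K) := by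
  have := h.map e.toMonoidHom
  rwa [Subgroup.map_top_of_surjective _ e.surjective] at this

/-- an abelian group generated by `p'`-elements is a `p'`-group -/
theorem pn_of_abelian {H : Subgroup G} (h : ⁅opR p H, opR p H⁆ = ⊥) : PN p H := by
  have h1 : ∀ x ∈ opR p H, (orderOf x).Coprime p := by
    intro x hx
    unfold opR at hx
    induction hx using Subgroup.closure_induction with
    | mem x hx => exact hx.2
    | one => simp
    | mul x y hx1 hy1 ihx ihy =>
      have hc : Commute x y := by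
        have h2 : ⁅x, y⁆ ∈ ⁅opR p H, opR p H⁆ := Subgroup.commutator_mem_commutator hx1 hy1
        rw [h, Subgroup.mem_bot, commutatorElement_eq_one_iff_mul_comm] at h2
        exact h2
      exact Nat.Coprime.coprime_dvd_left hc.orderOf_mul_dvd_mul_orderOf
        (Nat.Coprime.mul_left ihx ihy)
    | inv x hx1 ihx => rw [orderOf_inv]; exact ihx
  unfold PN
  rw [Nat.coprime_comm, Nat.Prime.coprime_iff_not_dvd hp.out]
  intro hd
  obtain ⟨x, hx⟩ := exists_prime_orderOf_dvd_card' (G := ↥(opR p H)) p hd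
  have h2 := h1 x x.2
  rw [Subgroup.orderOf_coe, hx, Nat.coprime_self] at h2
  exact hp.out.one_lt.ne' h2

/-- a `p`-element centralizing the `p`-complement is trivial if `O_p = 1` -/
theorem eq_one_of_centralizes (hO : pCore p G = ⊥) {x : G} {n : ℕ} (hx : x ^ p ^ n = 1)
    (hc : x ∈ Subgroup.centralizer ((opR p (⊤ : Subgroup G) : Subgroup G) : Set G)) : x = 1 := by
  have hxp : IsPGroup p ↥(Subgroup.zpowers x) := by
    apply IsPGroup.of_card (n := (Nat.card (Subgroup.zpowers x)).factorization p)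
    have h1 : Nat.card (Subgroup.zpowers x) ∣ p ^ n := by
      rw [Nat.card_zpowers]; exact orderOf_dvd_of_pow_eq_one hx
    obtain ⟨m, hm, h2⟩ := (Nat.dvd_prime_pow hp.out).1 h1
    rw [h2, Nat.Prime.factorization_pow hp.out, Finsupp.single_eq_same]
  obtain ⟨S, hS⟩ := hxp.exists_le_sylow
  set Q := opR p (⊤ : Subgroup G) with hQ
  have hCn : ((S : Subgroup G) ⊓ Subgroup.centralizer ((Q : Subgroup G) : Set G)).Normal := by
    apply normal_of_norm
    refine (top_le_opR_sup S).trans (sup_le ?_ ?_)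
    · have h1 : Q ≤ Subgroup.centralizer (((S : Subgroup G) ⊓
          Subgroup.centralizer ((Q : Subgroup G) : Set G) : Subgroup G) : Set G) := by
        rw [Subgroup.le_centralizer_iff]; exact inf_le_right
      exact h1.trans (centralizer_le_norm _)
    · exact le_norm_inf Subgroup.le_normalizer (le_norm_centralizer (norm_of_normal _))
  have h1 : (S : Subgroup G) ⊓ Subgroup.centralizer ((Q : Subgroup G) : Set G) ≤ pCore p G :=
    L0.le_pCore (S.2.to_le inf_le_left)
  rw [hO, le_bot_iff] at h1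
  have h2 : x ∈ (S : Subgroup G) ⊓ Subgroup.centralizer ((Q : Subgroup G) : Set G) :=
    Subgroup.mem_inf.2 ⟨hS (Subgroup.mem_zpowers x), hc⟩
  rw [h1] at h2
  exact Subgroup.mem_bot.1 h2

end

section
variable {p : ℕ} [hp : Fact p.Prime] {L : Type u} [Group L] [Finite L]

/-- the key commutation on chief factors -/
theorem comm_mem_kernel (hX : XX p (⊤ : Subgroup L)) (hp2 : p ≠ 2) {X Y : Subgroup L} [hYn : Y.Normal]
    (hXY : IsChiefFactor X Y) (hXp : IsPGroup p ↥X) {g : L} {n : ℕ} (hgn : g ^ p ^ n ∈ sectionKernel X Y)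
    (hq : ⁅⁅X, Subgroup.zpowers g⁆, Subgroup.zpowers g⁆ ≤ Y) :
    ∀ o ∈ opR p (⊤ : Subgroup L), o⁻¹ * (g * o * g⁻¹) ∈ sectionKernel X Y := by
  haveI := hXY.2.1
  set T := pCore p L with hT
  have hTp : IsPGroup p ↥T := L0.pCore_isPGroup p L
  set f := QuotientGroup.mk' T with hf
  have hfs : Function.Surjective f := QuotientGroup.mk'_surjective T
  obtain ⟨R, _, φ, hφ1, hφ2, hφ3⟩ := exists_rep (X := X) (Y := Y) (T := T) (chief_comm_self hXY hXp) hXp
    (chief_pow_mem hXY hXp) (chief_comm_le hXY hTp (L0.le_pCore hXp))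
  set Q := opR p (⊤ : Subgroup (L ⧸ T)) with hQ
  have hQmap : Q = (opR p (⊤ : Subgroup L)).map f := by
    rw [hQ, ← opR_map, Subgroup.map_top_of_surjective f hfs]
  have habel : ⁅Q, Q⁆ = ⊥ := by
    rw [hQmap, ← Subgroup.map_commutator, Subgroup.map_eq_bot_iff, QuotientGroup.ker_mk']
    exact L0.le_pCore hX
  have hcommQ : ∀ x ∈ Q, ∀ y ∈ Q, x * y = y * x := by
    intro x hx y hy
    have h1 : ⁅x, y⁆ ∈ ⁅Q, Q⁆ := Subgroup.commutator_mem_commutator hx hy
    rw [habel, Subgroup.mem_bot, commutatorElement_eq_one_iff_mul_comm] at h1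
    exact h1
  have h2p : 2 ≤ p - 1 := by
    have := hp.out.two_le
    omega
  have htrick := ring_trick φ Q (fun g y hy => (inferInstance : Q.Normal).conj_mem y hy g)
    (fun x hx y hy => by rw [← map_mul, hcommQ x hx y hy, map_mul]) (f g) hp.out (n := n)
    (by rw [← map_pow, ← map_pow, hφ1]; exact hgn) (hφ3 g (iter_le_of_le h2p hq)) (hφ2 _ (pn_of_abelian habel))
  intro o ho
  rw [← hφ1]
  have := htrick (f o) (by rw [hQmap]; exact Subgroup.mem_map_of_mem f ho)
  have e : f (o⁻¹ * (g * o * g⁻¹)) = (f o)⁻¹ * (f g * f o * (f g)⁻¹) := by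
    rw [map_mul, map_mul, map_mul, map_inv, map_inv]
  change φ (f (o⁻¹ * (g * o * g⁻¹))) = 1
  rw [e]; exact this

theorem xstable_normal (hX : XX p (⊤ : Subgroup L)) (hp2 : p ≠ 2) {P : Subgroup L} [hPn : P.Normal]
    (hPp : IsPGroup p ↥P) {g : L} (hq : ⁅⁅P, Subgroup.zpowers g⁆, Subgroup.zpowers g⁆ = ⊥) :
    ∃ D : Subgroup L, D.Normal ∧ Subgroup.centralizer (P : Set L) ≤ D ∧
      (∀ d ∈ D, ∃ k : ℕ, d ^ p ^ k ∈ Subgroup.centralizer (P : Set L)) ∧ g ∈ D := by
  set C := Subgroup.centralizer ((P : Subgroup L) : Set L) with hC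
  haveI hCn : C.Normal := normal_of_norm (le_norm_centralizer (norm_of_normal ⊤))
  -- `g` acts as a `p`-element
  obtain ⟨n, hgn⟩ : ∃ n, g ^ p ^ n ∈ C := by
    obtain ⟨a, m, hm, hn⟩ := Nat.exists_eq_pow_mul_and_not_dvd (orderOf_pos g).ne' p hp.out.ne_one
    refine ⟨a, ?_⟩
    have h4 : (g ^ p ^ a) ^ m = 1 := by rw [← pow_mul, ← hn, pow_orderOf_eq_one]
    have h5 : (orderOf (g ^ p ^ a)).Coprime p := Nat.Coprime.coprime_dvd_left (orderOf_dvd_of_pow_eq_one h4)
      ((Nat.Prime.coprime_iff_not_dvd hp.out).2 hm).symm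
    have h6 : ⁅P, Subgroup.zpowers (g ^ p ^ a)⁆ = ⊥ := by
      refine comm_zpowers_eq_bot_of_iter hPp (norm_of_normal ⊤ (Subgroup.mem_top _)) h5 (k := 2) ?_
      rw [eq_bot_iff, ← hq]
      have h7 : Subgroup.zpowers (g ^ p ^ a) ≤ Subgroup.zpowers g := by
        rw [Subgroup.zpowers_le]; exact Subgroup.pow_mem _ (Subgroup.mem_zpowers g) _
      exact iter_mono le_rfl h7 2
    rw [Subgroup.commutator_comm] at h6
    exact le_centralizer_of_comm_eq_bot h6 (Subgroup.mem_zpowers _)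
  -- the commutators `[o, g]` act nilpotently
  set E : Subgroup L := Subgroup.normalClosure {x | ∃ o ∈ opR p (⊤ : Subgroup L), x = o⁻¹ * (g * o * g⁻¹)} with hE
  have hEk : ∀ X Y, IsChiefFactor X Y → X ≤ P → (X ≤ P ∨ P ≤ Y) → ⁅X, E⁆ ≤ Y := by
    intro X Y hXY hXP _
    haveI := hXY.2.1
    haveI := hXY.2.2.1
    rw [← le_sectionKernel_iff]
    apply Subgroup.normalClosure_le_normal
    rintro _ ⟨o, ho, rfl⟩
    refine comm_mem_kernel hX hp2 hXY (hPp.to_le hXP) (n := n) ?_ ?_ o ho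
    · have h1 : C ≤ sectionKernel X Y := by
        rw [le_sectionKernel_iff]
        refine le_trans ?_ (bot_le (a := Y))
        rw [le_bot_iff, Subgroup.commutator_comm, Subgroup.commutator_eq_bot_iff_le_centralizer]
        exact Subgroup.centralizer_le (SetLike.coe_subset_coe.2 hXP)
      exact h1 hgn
    · refine le_trans ?_ (bot_le (a := Y))
      rw [← hq]
      exact Subgroup.commutator_mono (Subgroup.commutator_mono hXP le_rfl) le_rfl
  obtain ⟨k, hk⟩ := exists_iter_of_chief (Z := P) (D := E) _ P rfl (Or.inl le_rfl) hEk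
  have hEC : ∀ e ∈ E, ∃ m : ℕ, e ^ p ^ m ∈ C := by
    intro e he
    obtain ⟨a, m, hm, hn⟩ := Nat.exists_eq_pow_mul_and_not_dvd (orderOf_pos e).ne' p hp.out.ne_one
    refine ⟨a, ?_⟩
    have h4 : (e ^ p ^ a) ^ m = 1 := by rw [← pow_mul, ← hn, pow_orderOf_eq_one]
    have h5 : (orderOf (e ^ p ^ a)).Coprime p := Nat.Coprime.coprime_dvd_left (orderOf_dvd_of_pow_eq_one h4)
      ((Nat.Prime.coprime_iff_not_dvd hp.out).2 hm).symm
    have h6 : ⁅P, Subgroup.zpowers (e ^ p ^ a)⁆ = ⊥ := by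
      refine comm_zpowers_eq_bot_of_iter hPp (norm_of_normal ⊤ (Subgroup.mem_top _)) h5 (k := k) ?_
      rw [eq_bot_iff, ← hk]
      refine iter_mono le_rfl ?_ k
      rw [Subgroup.zpowers_le]; exact E.pow_mem he _
    rw [Subgroup.commutator_comm] at h6
    exact le_centralizer_of_comm_eq_bot h6 (Subgroup.mem_zpowers _)
  -- quotients
  set f₁ := QuotientGroup.mk' C with hf₁
  have hf₁s : Function.Surjective f₁ := QuotientGroup.mk'_surjective C
  set T₁ := pCore p (L ⧸ C) with hT₁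
  set f₂ := QuotientGroup.mk' T₁ with hf₂
  have hf₂s : Function.Surjective f₂ := QuotientGroup.mk'_surjective T₁
  have hET : E.map f₁ ≤ T₁ := by
    haveI : (E.map f₁).Normal := (inferInstance : E.Normal).map f₁ hf₁s
    apply L0.le_pCore
    rintro ⟨_, ⟨e, he, rfl⟩⟩
    obtain ⟨m, hm⟩ := hEC e he
    refine ⟨m, ?_⟩
    apply Subtype.ext
    change (f₁ e) ^ p ^ m = 1
    rw [← map_pow]
    exact (QuotientGroup.eq_one_iff _).2 hm
  have hgT : f₁ g ∈ T₁ := by
    have h1 : f₂ (f₁ g) = 1 := by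
      refine eq_one_of_centralizes (p := p) (n := n) (L0.pCore_quotient_pCore p (L ⧸ C)) ?_ ?_
      · rw [← map_pow, ← map_pow]
        have : f₁ (g ^ p ^ n) = 1 := (QuotientGroup.eq_one_iff _).2 hgn
        rw [this, map_one]
      · have h2 : opR p (⊤ : Subgroup ((L ⧸ C) ⧸ T₁)) = ((opR p (⊤ : Subgroup L)).map f₁).map f₂ := by
          rw [← opR_map, ← opR_map, Subgroup.map_top_of_surjective f₁ hf₁s, Subgroup.map_top_of_surjective f₂ hf₂s]
        rw [h2, Subgroup.mem_centralizer_iff]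
        rintro _ ⟨_, ⟨o, ho, rfl⟩, rfl⟩
        have h3 : f₁ (o⁻¹ * (g * o * g⁻¹)) ∈ T₁ :=
          hET (Subgroup.mem_map_of_mem f₁ (Subgroup.subset_normalClosure ⟨o, ho, rfl⟩))
        have h4 : f₂ (f₁ (o⁻¹ * (g * o * g⁻¹))) = 1 := (QuotientGroup.eq_one_iff _).2 h3
        simp only [map_mul, map_inv] at h4
        rw [inv_mul_eq_one] at h4
        calc f₂ (f₁ o) * f₂ (f₁ g) = (f₂ (f₁ g) * f₂ (f₁ o) * (f₂ (f₁ g))⁻¹) * f₂ (f₁ g) := by rw [← h4]
          _ = f₂ (f₁ g) * f₂ (f₁ o) := by group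
    exact (QuotientGroup.eq_one_iff _).1 h1
  refine ⟨T₁.comap f₁, inferInstance, ?_, ?_, hgT⟩
  · intro c hc
    have : f₁ c = 1 := (QuotientGroup.eq_one_iff _).2 hc
    change f₁ c ∈ T₁
    rw [this]; exact T₁.one_mem
  · intro d hd
    obtain ⟨m, hm⟩ := L0.pCore_isPGroup p (L ⧸ C) ⟨f₁ d, hd⟩
    refine ⟨m, ?_⟩
    have h1 : f₁ (d ^ p ^ m) = 1 := by rw [map_pow]; exact congrArg Subtype.val hm
    exact (QuotientGroup.eq_one_iff (d ^ p ^ m)).1 h1

theorem xstable (hX : XX p (⊤ : Subgroup L)) (hp2 : p ≠ 2) : IsNormalizerPStable p L := by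
  rw [normalizerPStable_iff]
  intro P hP g hg hq
  set N := Subgroup.normalizer (P : Set L) with hN
  haveI hPn : (P.subgroupOf N).Normal := (Subgroup.normal_subgroupOf_iff_le_normalizer Subgroup.le_normalizer).2 le_rfl
  have hPN : (P.subgroupOf N).map N.subtype = P := Subgroup.map_subgroupOf_eq_of_le Subgroup.le_normalizer
  have hXN : XX p (⊤ : Subgroup ↥N) := by rw [xx_top_iff]; exact hX.mono le_top
  have hinj : Function.Injective N.subtype := Subtype.val_injective
  have hcent : ∀ x : ↥N, x ∈ Subgroup.centralizer ((P.subgroupOf N : Subgroup ↥N) : Set ↥N) ↔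
      (x : L) ∈ Subgroup.centralizer (P : Set L) := by
    intro x
    rw [Subgroup.mem_centralizer_iff, Subgroup.mem_centralizer_iff]
    constructor
    · intro h y hy
      exact congrArg Subtype.val (h ⟨y, Subgroup.le_normalizer hy⟩ hy)
    · intro h y hy
      exact Subtype.ext (h y hy)
  obtain ⟨D, hD1, hD2, hD3, hD4⟩ := xstable_normal hXN hp2 (P := P.subgroupOf N)
    (hP.comap_of_injective N.subtype hinj) (g := ⟨g, hg⟩) (by
      rw [← map_eq_bot_inj hinj, Subgroup.map_commutator, Subgroup.map_commutator, hPN, MonoidHom.map_zpowers]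
      exact hq)
  refine ⟨D.map N.subtype, ?_, Subgroup.map_subtype_le D, ?_, ?_, ⟨_, hD4, rfl⟩⟩
  · intro c hc
    exact ⟨⟨c, centralizer_le_norm P hc⟩, hD2 ((hcent _).2 hc), rfl⟩
  · rw [le_norm_iff]
    rintro n hn _ ⟨d, hd, rfl⟩
    exact ⟨⟨n, hn⟩ * d * ⟨n, hn⟩⁻¹, hD1.conj_mem d hd _, rfl⟩
  · rintro _ ⟨d, hd, rfl⟩
    obtain ⟨k, hk⟩ := hD3 d hd
    exact ⟨k, (hcent _).1 hk⟩

/-- all sections of an `XX` group are `p`-stable -/
theorem xx_sections {G : Type u} [Group G] [Finite G] (hX : XX p (⊤ : Subgroup G)) (K R : Subgroup G)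
    [hR : (R.subgroupOf K).Normal] : XX p (⊤ : Subgroup (↥K ⧸ R.subgroupOf K)) := by
  have h1 : XX p (⊤ : Subgroup ↥K) := by rw [xx_top_iff]; exact hX.mono le_top
  have h2 := h1.map (QuotientGroup.mk' (R.subgroupOf K))
  rwa [Subgroup.map_top_of_surjective _ (QuotientGroup.mk'_surjective _)] at h2

theorem xx_of_coatom {H : Type u} [Group H] [Finite H] (hq : PN p (⊤ : Subgroup (H ⧸ pCore p H)))
    (S : Sylow p H) (hS : IsCoatom (S : Subgroup H)) : XX p (⊤ : Subgroup H) := by
  have hST : pCore p H ≤ (S : Subgroup H) := L0.pCore_le_sylow S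
  set T := pCore p H with hT
  set f := QuotientGroup.mk' T with hf
  have hfs : Function.Surjective f := QuotientGroup.mk'_surjective T
  have hcomap : ((S : Subgroup H).map f).comap f = S := by
    rw [comap_map_mk', sup_eq_left]; exact hST
  have hSbc : ((S.mapSurjective hfs : Sylow p (H ⧸ T)) : Subgroup (H ⧸ T)) = (S : Subgroup H).map f :=
    Sylow.coe_mapSurjective _ _
  have hSbcoatom : IsCoatom ((S.mapSurjective hfs : Sylow p (H ⧸ T)) : Subgroup (H ⧸ T)) := by
    constructor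
    · intro h
      apply hS.1
      rw [hSbc] at h
      rw [← hcomap, h, Subgroup.comap_top]
    · intro M hM
      rw [hSbc] at hM
      have h1 : (S : Subgroup H) < M.comap f := by
        refine lt_of_le_of_ne ?_ ?_
        · rw [← Subgroup.map_le_iff_le_comap]; exact hM.le
        · intro h
          apply hM.ne
          rw [h, Subgroup.map_comap_eq_self_of_surjective hfs]
      have h2 := hS.2 _ h1
      rw [← Subgroup.map_comap_eq_self_of_surjective hfs M, h2, Subgroup.map_top_of_surjective _ hfs]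
  obtain ⟨-, habel⟩ := coatom_facts _ hSbcoatom hq
  have h1 : ⁅opR p (⊤ : Subgroup H), opR p (⊤ : Subgroup H)⁆ ≤ T := by
    rw [← QuotientGroup.ker_mk' T, ← Subgroup.map_eq_bot_iff, Subgroup.map_commutator, ← opR_map,
      Subgroup.map_top_of_surjective _ hfs]
    exact habel
  exact (L0.pCore_isPGroup p H).to_le h1

end
end Cfsg.Agent.H6
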